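import Cfsg.Agent.H336.Co3.PCases
import Cfsg.Agent.H738.C3.Red

/-!
# The bridge from `BD` to `Cf` and `NChar` (helper336)
-/

set_option autoImplicit false

open Subgroup

namespace Cfsg.Agent.H336.Co3

theorem cf_of_BD {B : Type*} [Group B] {N : Subgroup B} [hN : N.Normal] {z s : B}
    {φ : B →* Equiv.Perm (Fin 6)} (D : H738.C3.BD N z s φ)
    (hA : ∀ b, (∀ n ∈ N, b * n * b⁻¹ * n⁻¹ ∈ zpowers z) → b ∈ N) : Cf N z s := by
  refine Cf.mk' hN D.card D.sN D.ss D.zz D.z1 D.scen D.sq D.comm D.cen D.zc ?_ ?_ hA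
  · by_contra hcon
    push Not at hcon
    rcases D.center s (fun x => hcon x) with h | h
    · apply D.z1
      rw [← D.ss, h, one_mul]
    · apply D.z1
      have h1 := D.ss
      rw [h, D.zz] at h1
      exact h1.symm
  · have hker : φ.ker = N := by
      ext b
      rw [MonoidHom.mem_ker]; exact D.ker b
    subst hker
    exact ⟨QuotientGroup.quotientKerEquivOfSurjective φ D.surj⟩

/-- **case A: `N ∩ T` is characteristic in `T`** -/
theorem nchar {B : Type*} [Group B] [Finite B] (N : Subgroup B) [hN : N.Normal] (z s : B)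
    (φ : B →* Equiv.Perm (Fin 6)) (D : H738.C3.BD N z s φ)
    (hA : ∀ b, (∀ n ∈ N, b * n * b⁻¹ * n⁻¹ ∈ zpowers z) → b ∈ N)
    (T : Sylow 2 B) (α : ↥T ≃* ↥T) (t : ↥T) (ht : (t : B) ∈ N) : (α t : B) ∈ N := by
  have C := cf_of_BD D hA
  have h := C.N_char T α
  have h1 : α t ∈ (N.subgroupOf (T : Subgroup B)).map α.toMonoidHom := ⟨t, ht, rfl⟩
  rw [h] at h1
  exact h1

end Cfsg.Agent.H336.Co3
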